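import Cfsg.Agent.H960.KGV.Core
import Cfsg.Agent.H845.KGV.Pow
import Cfsg.Agent.S0721

/-!
# The configuration `Core`, non-abelian chief factor

`core_nonab_le_of`: the class number bound, from the bound `2 ^ (m - 1)` for permutation groups of degree `m`.
-/

set_option autoImplicit false

namespace Cfsg.Agent.H845.KGV.NonabAux

open Cfsg Cfsg.Agent.H960.KGV Cfsg.Agent.H845.KGV.Pow Cfsg.Agent.H540.ClassNum

variable {H : Type} [Group H] {A N C : Subgroup H} {p f a : ℕ} {F : Type} [Field F] {ψ : C →* GL (Fin a) F}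

/-- the scalars commute with `C` -/
theorem comm_A (h : Core A N C p f a ψ) {x c : H} (hx : x ∈ A) (hc : c ∈ C) : x * c = c * x := by
  have hxC : x ∈ C := h.NC (h.AN hx)
  obtain ⟨s, hs⟩ := (h.scal ⟨x, hxC⟩).1 hx
  have h1 : ψ (⟨x, hxC⟩ * ⟨c, hc⟩) = ψ (⟨c, hc⟩ * ⟨x, hxC⟩) := by
    rw [map_mul, map_mul]
    apply Units.ext
    rw [Units.val_mul, Units.val_mul, hs]
    simp
  exact congrArg Subtype.val (h.inj h1)

/-- the centralizer of `N` in `C` -/
theorem mem_A_of_comm (h : Core A N C p f a ψ) {c : H} (hc : c ∈ C) (hN : ∀ n ∈ N, c * n = n * c) : c ∈ A := by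
  rw [h.scal ⟨c, hc⟩]
  apply h.abs
  intro n hn
  have h1 : (⟨c, hc⟩ : C) * n = n * ⟨c, hc⟩ := Subtype.ext (hN n hn)
  have h2 := congrArg (fun g : GL (Fin a) F => (g : Matrix (Fin a) (Fin a) F)) (congrArg ψ h1)
  simpa [map_mul, Units.val_mul] using h2

/-- the derived group and the scalars generate `N` -/
theorem comm_sup (h : Core A N C p f a ψ) (hab : ¬ ∀ x ∈ N, ∀ y ∈ N, x * y * x⁻¹ * y⁻¹ ∈ A) :
    ⁅N, N⁆ ⊔ A = N := by
  have := h.An
  have := h.Nn
  rcases h.min (⁅N, N⁆ ⊔ A) inferInstance le_sup_right (sup_le (Subgroup.commutator_le_left N N) h.AN) with h1 | h1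
  · exfalso
    apply hab
    intro x hx y hy
    rw [← h1]
    exact Subgroup.mem_sup_left (Subgroup.commutator_mem_commutator hx hy)
  · exact h1

/-- the centralizer of `N / A` in `C` -/
theorem mem_A_of_comm_mod (h : Core A N C p f a ψ) (hab : ¬ ∀ x ∈ N, ∀ y ∈ N, x * y * x⁻¹ * y⁻¹ ∈ A)
    {c : H} (hc : c ∈ C) (hN : ∀ n ∈ N, c * n * c⁻¹ * n⁻¹ ∈ A) : c ∈ A := by
  apply mem_A_of_comm h hc
  have h1 : N ≤ Subgroup.centralizer {c} := by
    rw [← comm_sup h hab]
    refine sup_le ?_ ?_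
    · rw [Subgroup.commutator_le]
      intro x hx y hy
      rw [Subgroup.mem_centralizer_singleton_iff]
      obtain ⟨u, hu, hux⟩ : ∃ u ∈ A, c * x * c⁻¹ = u * x := ⟨_, hN x hx, by group⟩
      obtain ⟨v, hv, hvy⟩ : ∃ v ∈ A, c * y * c⁻¹ = v * y := ⟨_, hN y hy, by group⟩
      have hux' : Commute u x := comm_A h hu (h.NC hx)
      have huy : Commute u y := comm_A h hu (h.NC hy)
      have hvx : Commute v x := comm_A h hv (h.NC hx)
      have hvy' : Commute v y := comm_A h hv (h.NC hy)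
      have huv : Commute u v := comm_A h hu (h.NC (h.AN hv))
      rw [commutatorElement_def]
      have e1 : c * (x * y * x⁻¹ * y⁻¹) * c⁻¹ =
          c * x * c⁻¹ * (c * y * c⁻¹) * (c * x * c⁻¹)⁻¹ * (c * y * c⁻¹)⁻¹ := by
        group
      have e2 : u * x * (v * y) * (u * x)⁻¹ * (v * y)⁻¹ = x * y * x⁻¹ * y⁻¹ := by
        have i1 : u * x * (v * y) = (x * y) * (u * v) := by
          have j1 : Commute x v := hvx.symm
          calc u * x * (v * y) = u * (x * v) * y := by group
            _ = u * (v * x) * y := by rw [j1.eq]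
            _ = (u * v) * (x * y) := by group
            _ = (x * y) * (u * v) := ((hux'.mul_right huy).mul_left (hvx.mul_right hvy')).eq
        have i2 : (u * x)⁻¹ * (v * y)⁻¹ = (u * v)⁻¹ * (x⁻¹ * y⁻¹) := by
          have j1 : (v * y) * (u * x) = (y * x) * (u * v) := by
            have k1 : Commute y u := huy.symm
            calc v * y * (u * x) = v * (y * u) * x := by group
              _ = v * (u * y) * x := by rw [k1.eq]
              _ = (v * u) * (y * x) := by group
              _ = (y * x) * (v * u) := ((hvy'.mul_right hvx).mul_left (huy.mul_right hux')).eq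
              _ = (y * x) * (u * v) := by rw [huv.eq]
          rw [← mul_inv_rev, j1, mul_inv_rev, mul_inv_rev y x]
        calc u * x * (v * y) * (u * x)⁻¹ * (v * y)⁻¹ = (u * x * (v * y)) * ((u * x)⁻¹ * (v * y)⁻¹) := by group
          _ = x * y * x⁻¹ * y⁻¹ := by rw [i1, i2]; group
      rw [hux, hvy, e2] at e1
      rw [mul_inv_eq_iff_eq_mul] at e1
      exact e1.symm
    · intro x hx
      rw [Subgroup.mem_centralizer_singleton_iff]
      exact comm_A h hx hc
  intro n hn
  have h2 := h1 hn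
  rw [Subgroup.mem_centralizer_singleton_iff] at h2
  exact h2.symm

/-- the number of scalars -/
theorem card_A_le (h : Core A N C p f a ψ) : Nat.card A ≤ p ^ f - 1 := by
  classical
  have hp := h.prime
  have hF : Finite F := Nat.finite_of_card_ne_zero (by rw [h.cardF]; exact (pow_pos hp.pos f).ne')
  have hFt : Fintype F := Fintype.ofFinite F
  have ha : 0 < a := lt_of_lt_of_le (by norm_num) h.two_le
  have key : ∀ x : A, ∃ s : Fˣ, (ψ ⟨x, h.NC (h.AN x.2)⟩ : Matrix (Fin a) (Fin a) F) = (s : F) • 1 := by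
    intro x
    obtain ⟨s, hs⟩ := (h.scal ⟨x, h.NC (h.AN x.2)⟩).1 x.2
    have hs0 : s ≠ 0 := by
      rintro rfl
      rw [zero_smul] at hs
      have h1 : (ψ ⟨x, h.NC (h.AN x.2)⟩ : Matrix (Fin a) (Fin a) F) *
          ((ψ ⟨x, h.NC (h.AN x.2)⟩)⁻¹ : GL (Fin a) F) = 1 := Units.mul_inv _
      rw [hs, zero_mul] at h1
      have h2 := congrFun (congrFun h1 ⟨0, ha⟩) ⟨0, ha⟩
      simp at h2
    exact ⟨Units.mk0 s hs0, hs⟩
  choose s hs using key
  have hinj : Function.Injective s := by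
    intro x y hxy
    have h1 : ψ ⟨x, h.NC (h.AN x.2)⟩ = ψ ⟨y, h.NC (h.AN y.2)⟩ := by
      apply Units.ext
      rw [hs, hs, hxy]
    have h2 := congrArg Subtype.val (h.inj h1)
    exact Subtype.ext h2
  have h1 := Nat.card_le_card_of_injective s hinj
  rwa [Nat.card_units, h.cardF] at h1

theorem f_pos (h : Core A N C p f a ψ) : 0 < f := by
  rcases Nat.eq_zero_or_pos f with h0 | h0
  · exfalso
    have h1 := h.cardF
    rw [h0, pow_zero, Nat.card_eq_one_iff_unique] at h1
    obtain ⟨h2, -⟩ := h1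
    exact zero_ne_one (Subsingleton.elim (0 : F) 1)
  · exact h0

/-- the passage to the linear part -/
theorem index_step (h : Core A N C p f a ψ) (R : Subgroup H) :
    Nat.card (ConjClasses R) ≤ f * Nat.card (ConjClasses (R ⊓ C : Subgroup H)) := by
  have := h.fin
  have h1 := le_index_mul' ((R ⊓ C).subgroupOf R)
  rw [card_conjClasses_congr (Subgroup.subgroupOfEquivOfLe (inf_le_left : R ⊓ C ≤ R))] at h1
  refine h1.trans (Nat.mul_le_mul_right _ ?_)
  have h2 : ((R ⊓ C).subgroupOf R).index = C.relIndex R := by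
    rw [Subgroup.inf_subgroupOf_left]
    rfl
  rw [h2]
  have h3 : C.relIndex R ≤ C.index := Nat.le_of_dvd (Nat.pos_of_ne_zero Subgroup.index_ne_zero_of_finite)
    (by
      have := h.Cn
      exact Subgroup.relIndex_dvd_index_of_normal C R)
  exact h3.trans (Nat.le_of_dvd (f_pos h) h.index)

/-- the passage to the quotient by the scalars -/
theorem quot_step (h : Core A N C p f a ψ) [hA : A.Normal] (R : Subgroup H) :
    Nat.card (ConjClasses R) ≤ (p ^ f - 1) *
      Nat.card (ConjClasses (R.map (QuotientGroup.mk' A) : Subgroup (H ⧸ A))) := by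
  have := h.fin
  have h1 := le_ker_mul_range ((QuotientGroup.mk' A).comp R.subtype)
  have h2 : ((QuotientGroup.mk' A).comp R.subtype).range = R.map (QuotientGroup.mk' A) := by
    rw [MonoidHom.range_comp, Subgroup.range_subtype]
  rw [h2] at h1
  refine h1.trans (Nat.mul_le_mul_right _ ?_)
  refine card_conjClasses_le_card.trans (le_trans ?_ (card_A_le h))
  refine Nat.card_le_card_of_injective
    (fun x : ((QuotientGroup.mk' A).comp R.subtype).ker => (⟨((x : R) : H), ?_⟩ : A)) ?_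
  · have h3 : QuotientGroup.mk' A ((x : R) : H) = 1 := x.2
    rwa [QuotientGroup.mk'_apply, QuotientGroup.eq_one_iff] at h3
  · intro x y hxy
    exact Subtype.ext (Subtype.ext (congrArg (fun z : A => (z : H)) hxy))

/-- the bound, from the bound for permutation groups -/
theorem core_nonab_le_of
    (hperm : ∀ (m : ℕ) (S : Subgroup (Equiv.Perm (Fin m))), Nat.card (ConjClasses S) ≤ 2 ^ (m - 1))
    (h : Core A N C p f a ψ) (hab : ¬ ∀ x ∈ N, ∀ y ∈ N, x * y * x⁻¹ * y⁻¹ ∈ A) :
    ∃ (T : Type) (_ : Group T) (_ : Finite T) (_ : IsSimpleGroup T) (m : ℕ) (π : N →* (Fin m → T)),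
      ¬ IsMulCommutative T ∧ 1 ≤ m ∧ Function.Surjective π ∧ (∀ x : N, π x = 1 ↔ (x : H) ∈ A) ∧
        ∀ R : Subgroup H, Two R → Nat.card (ConjClasses R) ≤
          f * (p ^ f - 1) * ((Nat.card (Cfsg.Out T) * Nat.card (ConjClasses T)) ^ m * 2 ^ (m - 1)) := by
  have hfin := h.fin
  have hAn := h.An
  have hNn := h.Nn
  have hCn := h.Cn
  set q := QuotientGroup.mk' A with hq
  have hqs : Function.Surjective q := QuotientGroup.mk'_surjective A
  have hq1 : ∀ x : H, q x = 1 ↔ x ∈ A := fun x => QuotientGroup.eq_one_iff x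
  have hNb : (N.map q).Normal := Subgroup.Normal.map hNn q hqs
  have hmemN : ∀ x : H, q x ∈ N.map q ↔ x ∈ N := by
    intro x
    constructor
    · rintro ⟨n, hn, hx⟩
      have h1 : n⁻¹ * x ∈ A := by
        rw [← hq1, map_mul, map_inv, hx, inv_mul_cancel]
      have h2 : x = n * (n⁻¹ * x) := by group
      rw [h2]
      exact mul_mem hn (h.AN h1)
    · intro hx
      exact ⟨x, hx, rfl⟩
  have hNb0 : N.map q ≠ ⊥ := by
    intro h0
    apply h.ne
    apply le_antisymm h.AN
    intro x hx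
    rw [← hq1]
    have : q x ∈ N.map q := (hmemN x).2 hx
    rw [h0] at this
    exact Subgroup.mem_bot.1 this
  have hmin : ∀ M : Subgroup (H ⧸ A), M.Normal → M ≤ N.map q → M = ⊥ ∨ M = N.map q := by
    intro M hM hMN
    have h1 : (M.comap q).Normal := hM.comap q
    have hAM : A ≤ M.comap q := by
      intro x hx
      rw [Subgroup.mem_comap, (hq1 x).2 hx]
      exact M.one_mem
    have hMN' : M.comap q ≤ N := by
      intro x hx
      exact (hmemN x).1 (hMN hx)
    have h2 : (M.comap q).map q = M := Subgroup.map_comap_eq_self_of_surjective hqs M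
    rcases h.min _ h1 hAM hMN' with h3 | h3
    · left
      rw [← h2, h3, eq_bot_iff]
      rintro _ ⟨x, hx, rfl⟩
      exact (hq1 x).2 hx
    · right
      rw [← h2, h3]
  obtain ⟨T, iT, m, hTs, hm, ⟨e⟩⟩ := Cfsg.Agent.S0721.result (N.map q) hNb0 hmin
  -- the projection
  let π0 : N →* N.map q := (q.comp N.subtype).codRestrict (N.map q) (fun x => ⟨x, x.2, rfl⟩)
  have hπ0 : ∀ x : N, ((π0 x : N.map q) : H ⧸ A) = q x := fun x => rfl
  have hπ0s : Function.Surjective π0 := by
    rintro ⟨_, n, hn, rfl⟩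
    exact ⟨⟨n, hn⟩, rfl⟩
  have hTfin : Finite T := by
    have h1 : Finite (Fin m → T) := Finite.of_injective e.symm e.symm.injective
    exact Finite.of_injective _ (Cfsg.Agent.H539.SocBound.single_injective (T := T) (⟨0, hm⟩ : Fin m))
  have hTn : ¬ IsMulCommutative T := by
    intro hT
    apply hab
    intro x hx y hy
    rw [← hq1]
    have h1 : e (π0 ⟨x, hx⟩) * e (π0 ⟨y, hy⟩) = e (π0 ⟨y, hy⟩) * e (π0 ⟨x, hx⟩) := by
      funext i
      exact hT.is_comm.comm _ _
    rw [← map_mul e, ← map_mul e] at h1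
    have h2 : q x * q y = q y * q x := congrArg Subtype.val (e.injective h1)
    rw [map_mul, map_mul, map_mul, map_inv, map_inv, h2]
    group
  refine ⟨T, iT, hTfin, hTs, m, e.toMonoidHom.comp π0, hTn, hm, e.surjective.comp hπ0s, ?_, ?_⟩
  · intro x
    rw [← hq1]
    have h1 : (e.toMonoidHom.comp π0) x = e (π0 x) := rfl
    rw [h1]
    constructor
    · intro h2
      have h3 : π0 x = 1 := by
        apply e.injective
        rw [h2, map_one]
      exact congrArg Subtype.val h3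
    · intro h2
      have h3 : π0 x = 1 := Subtype.ext h2
      rw [h3, map_one]
  rintro R ⟨R', hR'n, hRR', hR'R⟩
  -- the centralizer
  have hcent : ∀ x ∈ C.map q, (∀ n ∈ N.map q, x * n = n * x) → x = 1 := by
    rintro _ ⟨c, hc, rfl⟩ hx
    rw [hq1]
    apply mem_A_of_comm_mod h hab hc
    intro n hn
    have h1 := hx (q n) ((hmemN n).2 hn)
    rw [← hq1, map_mul, map_mul, map_mul, map_inv, map_inv, h1]
    group
  have hX1n : ((R' ⊓ C).map q).Normal := Subgroup.Normal.map inferInstance q hqs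
  have hX1C : (R' ⊓ C).map q ≤ C.map q := Subgroup.map_mono inf_le_right
  have hX21 : (R ⊓ C).map q ≤ (R' ⊓ C).map q := Subgroup.map_mono (inf_le_inf_right C hRR')
  -- the first step
  obtain ⟨⟨m1, hm1, ⟨e1⟩⟩, hc1⟩ := inter_pow hTn (X := (R' ⊓ C).map q) e
    (fun x _ n hn => hNb.conj_mem n hn x) (fun n _ x hx => hX1n.conj_mem x hx n)
    (fun x hx => hcent x (hX1C hx))
  -- the second step
  have hX21c : ∀ n ∈ (R' ⊓ C).map q ⊓ N.map q, ∀ x ∈ (R ⊓ C).map q, n * x * n⁻¹ ∈ (R ⊓ C).map q := by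
    rintro _ ⟨⟨n, hn, rfl⟩, -⟩ _ ⟨x, hx, rfl⟩
    exact ⟨n * x * n⁻¹, ⟨hR'R n hn.1 x hx.1, hCn.conj_mem x hx.2 n⟩, by rw [map_mul, map_mul, map_inv]⟩
  obtain ⟨⟨m2, hm2, ⟨e2⟩⟩, hc2⟩ := inter_pow hTn (X := (R ⊓ C).map q) e1
    (fun x _ n hn => ⟨hX1n.conj_mem n hn.1 x, hNb.conj_mem n hn.2 x⟩) hX21c
    (fun x hx => hc1 x (hX21 hx))
  have hb := bound hperm hTn (X := (R ⊓ C).map q) (M := (R ⊓ C).map q ⊓ ((R' ⊓ C).map q ⊓ N.map q))
    inf_le_left (hm2.trans hm1) e2
    (fun x hx n hn => ⟨((R ⊓ C).map q).mul_mem (((R ⊓ C).map q).mul_mem hx hn.1) (((R ⊓ C).map q).inv_mem hx),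
      hX1n.conj_mem n hn.2.1 x, hNb.conj_mem n hn.2.2 x⟩) hc2
  calc Nat.card (ConjClasses R) ≤ f * Nat.card (ConjClasses (R ⊓ C : Subgroup H)) := index_step h R
    _ ≤ f * ((p ^ f - 1) * Nat.card (ConjClasses ((R ⊓ C).map q : Subgroup (H ⧸ A)))) :=
        Nat.mul_le_mul_left _ (quot_step h (R ⊓ C))
    _ ≤ f * ((p ^ f - 1) * ((Nat.card (Cfsg.Out T) * Nat.card (ConjClasses T)) ^ m * 2 ^ (m - 1))) :=
        Nat.mul_le_mul_left _ (Nat.mul_le_mul_left _ hb)
    _ = _ := by ring

end Cfsg.Agent.H845.KGV.NonabAux
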